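import Cfsg.Agent.Lib.Helper4.JC.Defs

set_option autoImplicit false

namespace Cfsg.Agent.Lib.Helper4.JC

open Cfsg

variable {t : ℕ}

theorem ari1_fib (m n : ℕ) :
    ∑ c : Fin n, (if ¬ ((c : ℕ) + m < n) ∧ ¬ ((c : ℕ) = 0 ∧ m = n) then 1 else 0) = ff m n := by
  rw [Fin.sum_univ_eq_sum_range (fun c => if ¬ (c + m < n) ∧ ¬ (c = 0 ∧ m = n) then 1 else 0) n,
    Finset.sum_boole]
  simp only [Nat.cast_id]
  have h1 : (Finset.range n).filter (fun c => ¬ (c + m < n) ∧ ¬ (c = 0 ∧ m = n)) =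
      Finset.Ico (if m = n then 1 else n - m) n := by
    ext c
    simp only [Finset.mem_filter, Finset.mem_range, Finset.mem_Ico]
    split_ifs with h <;> omega
  rw [h1, Nat.card_Ico, ff]
  split_ifs with h <;> omega

theorem ari1 (d : Fin t → ℕ) :
    Nat.card {p : Fin t × Idx d // ¬ pZ d p ∧ ¬ pD d p} = ∑ k : Fin t, ∑ l : Fin t, ff (d k) (d l) := by
  classical
  rw [Nat.card_eq_fintype_card, Fintype.card_subtype, Finset.card_filter, Fintype.sum_prod_type]
  apply Finset.sum_congr rfl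
  intro k _
  rw [Fintype.sum_sigma]
  apply Finset.sum_congr rfl
  intro l _
  rw [← ari1_fib (d k) (d l)]
  apply Finset.sum_congr rfl
  intro c _
  exact if_congr Iff.rfl rfl rfl

end Cfsg.Agent.Lib.Helper4.JC
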