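import Cfsg.Agent.Lib.Helper4.JC.Defs

/-! Ladder JC, rung ARI2: the fiberwise sum identity. -/

set_option autoImplicit false

namespace Cfsg.Agent.Lib.Helper4.JC

open Cfsg

variable {t : ℕ}

theorem ari2_fib (d : Fin t → ℕ) (h : ℕ → ℕ) :
    ∑ k : Fin t, h (d k) = ∑ i ∈ Finset.range (Finset.univ.sup d + 1),
      (Finset.univ.filter (fun k : Fin t => d k = i)).card * h i := by
  rw [← Finset.sum_fiberwise_of_maps_to (s := Finset.univ)
    (t := Finset.range (Finset.univ.sup d + 1)) (g := d)
    (fun x _ => Finset.mem_range.2 (Nat.lt_succ_of_le (Finset.le_sup (Finset.mem_univ x))))]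
  refine Finset.sum_congr rfl fun i _ => ?_
  rw [Finset.sum_congr rfl (fun x hx => by rw [(Finset.mem_filter.1 hx).2] :
    ∀ x ∈ Finset.univ.filter (fun k : Fin t => d k = i), h (d x) = h i),
    Finset.sum_const, smul_eq_mul]

theorem ari2_split (a : ℕ → ℕ) (i j : ℕ) :
    a i * a j * ff i j = (if i < j then i * a i * a j else 0) +
      (if j < i then j * a j * a i else 0) + (if i = j then (i - 1) * a i ^ 2 else 0) := by
  unfold ff
  rcases lt_trichotomy i j with h | h | h
  · rw [if_pos h, if_neg (by omega), if_neg (by omega), if_neg (by omega), min_eq_left h.le]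
    ring
  · subst h
    simp only [lt_irrefl, if_true, if_false]
    ring
  · rw [if_neg (by omega), if_pos h, if_neg (by omega), if_neg (by omega), min_eq_right h.le]
    ring

theorem ari2 (d : Fin t → ℕ) :
    ∑ k : Fin t, ∑ l : Fin t, ff (d k) (d l) =
      2 * (∑ i ∈ Finset.range (Finset.univ.sup d + 1), ∑ j ∈ Finset.range (Finset.univ.sup d + 1),
        if i < j then i * (Finset.univ.filter (fun k : Fin t => d k = i)).card *
          (Finset.univ.filter (fun k : Fin t => d k = j)).card else 0) +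
      ∑ i ∈ Finset.range (Finset.univ.sup d + 1),
        (i - 1) * (Finset.univ.filter (fun k : Fin t => d k = i)).card ^ 2 := by
  obtain ⟨a, ha⟩ : ∃ a : ℕ → ℕ, ∀ i, (Finset.univ.filter (fun k : Fin t => d k = i)).card = a i :=
    ⟨_, fun _ => rfl⟩
  have h1 : ∑ k : Fin t, ∑ l : Fin t, ff (d k) (d l) =
      ∑ i ∈ Finset.range (Finset.univ.sup d + 1), ∑ j ∈ Finset.range (Finset.univ.sup d + 1),
        a i * a j * ff i j := by
    rw [ari2_fib d (fun i => ∑ l : Fin t, ff i (d l))]
    refine Finset.sum_congr rfl fun i _ => ?_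
    rw [ari2_fib d (fun j => ff i j), Finset.mul_sum]
    refine Finset.sum_congr rfl fun j _ => ?_
    rw [ha, ha]
    ring
  rw [h1]
  simp only [ha, ari2_split, Finset.sum_add_distrib]
  rw [Finset.sum_comm (f := fun i j => if j < i then j * a j * a i else 0)]
  have h3 : ∑ i ∈ Finset.range (Finset.univ.sup d + 1),
      ∑ j ∈ Finset.range (Finset.univ.sup d + 1), (if i = j then (i - 1) * a i ^ 2 else 0) =
      ∑ i ∈ Finset.range (Finset.univ.sup d + 1), (i - 1) * a i ^ 2 := by
    refine Finset.sum_congr rfl fun i hi => ?_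
    rw [Finset.sum_ite_eq, if_pos hi]
  rw [h3]
  ring

end Cfsg.Agent.Lib.Helper4.JC
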