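import Cfsg.Agent.Lib.Helper4.JC.Defs

set_option autoImplicit false

namespace Cfsg.Agent.Lib.Helper4.JC

open Cfsg

variable {F : Type*} [Field F] {t : ℕ} {d : Fin t → ℕ}

theorem blk_le (d : Fin t → ℕ) (k : Fin t) : d k ≤ Finset.univ.sup d :=
  Finset.le_sup (f := d) (Finset.mem_univ k)

theorem blk_arith (D a a' r r' : ℕ) (hr : r ≤ D) (hr' : r' ≤ D)
    (h : a * (D + 1) + r = a' * (D + 1) + r') : a = a' ∧ r = r' := by
  rcases lt_trichotomy a a' with h1 | h1 | h1
  · exfalso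
    have h2 : (a + 1) * (D + 1) ≤ a' * (D + 1) := Nat.mul_le_mul_right _ h1
    have h3 : (a + 1) * (D + 1) = a * (D + 1) + (D + 1) := by ring
    omega
  · subst h1
    exact ⟨rfl, by omega⟩
  · exfalso
    have h2 : (a' + 1) * (D + 1) ≤ a * (D + 1) := Nat.mul_le_mul_right _ h1
    have h3 : (a' + 1) * (D + 1) = a' * (D + 1) + (D + 1) := by ring
    omega

theorem blk_beta (r s : Idx d) : beta d r = beta d s ↔ (r.2 : ℕ) = s.2 ∧ d r.1 = d s.1 := by
  constructor
  · intro h
    unfold beta at h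
    obtain ⟨h1, h2⟩ := blk_arith _ _ _ _ _ (Nat.sub_le _ _) (Nat.sub_le _ _) h
    refine ⟨h1, ?_⟩
    have e1 := blk_le d r.1
    have e2 := blk_le d s.1
    have e3 := r.2.2
    have e4 := s.2.2
    omega
  · rintro ⟨h1, h2⟩
    unfold beta
    rw [h1, h2]

/-- the block of `s` is indexed by the Jordan blocks of the same size. -/
def blkE (s : Idx d) : {r : Idx d // beta d r = beta d s} ≃ {k : Fin t // d k = d s.1} where
  toFun r := ⟨r.1.1, ((blk_beta _ _).1 r.2).2⟩
  invFun k := ⟨⟨k.1, ⟨s.2, by rw [k.2]; exact s.2.2⟩⟩, (blk_beta _ _).2 ⟨rfl, k.2⟩⟩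
  left_inv r := by
    apply Subtype.ext
    refine Sigma.ext rfl (heq_of_eq (Fin.ext ?_))
    exact ((blk_beta _ _).1 r.2).1.symm
  right_inv k := Subtype.ext rfl

/-- BLK. -/
theorem blk (hd : ∀ k, 1 ≤ d k) (x : Fin t → Idx d → F) (s : Idx d) :
    ((Phi x).transpose.toSquareBlock (beta d) (beta d s)).det = (Mi hd (d s.1) x).det := by
  have hM : (Phi x).transpose.toSquareBlock (beta d) (beta d s)
      = ((Mi hd (d s.1) x).transpose).submatrix (blkE s) (blkE s) := by
    ext r r'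
    rw [Matrix.toSquareBlock_def, Matrix.of_apply, Matrix.transpose_apply, Phi_apply,
      Matrix.submatrix_apply, Matrix.transpose_apply]
    have h1 := ((blk_beta _ _).1 r.2).1
    have h2 := ((blk_beta _ _).1 r'.2).1
    rw [if_pos (by omega)]
    show _ = x r.1.1 (z0 hd r'.1.1)
    congr 1
    unfold z0
    refine Sigma.ext rfl (heq_of_eq (Fin.ext ?_))
    show (r'.1.2 : ℕ) - r.1.2 = 0
    omega
  rw [hM, Matrix.det_submatrix_equiv_self, Matrix.det_transpose]

end Cfsg.Agent.Lib.Helper4.JC
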