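import Cfsg.Agent.Lib.Helper4.JC.Defs

set_option autoImplicit false

namespace Cfsg.Agent.Lib.Helper4.JC

open Cfsg

variable {F : Type*} [Field F] {t : ℕ} {d : Fin t → ℕ}

theorem ent_bwd {x : Fin t → Idx d → F} (h : Supp x) : Ent (Phi x) := by
  rintro ⟨l, ⟨b, hb⟩⟩ ⟨k, ⟨a, ha⟩⟩
  simp only [Phi_apply]
  by_cases h1 : a + 1 < d k
  · rw [dif_pos h1]
    by_cases hb0 : 0 < b
    · rw [if_pos hb0]
      by_cases hab : a + 1 ≤ b
      · rw [if_pos hab, if_pos (show a ≤ b - 1 by omega)]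
        congr 3
        omega
      · rw [if_neg hab, if_neg (show ¬ a ≤ b - 1 by omega)]
    · rw [if_neg hb0, if_neg (show ¬ a + 1 ≤ b by omega)]
  · rw [dif_neg h1]
    by_cases hb0 : 0 < b
    · rw [if_pos hb0]
      by_cases hab : a ≤ b - 1
      · rw [if_pos hab]
        symm
        apply h
        show b - 1 - a + d k < d l
        omega
      · rw [if_neg hab]
    · rw [if_neg hb0]

end Cfsg.Agent.Lib.Helper4.JC
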