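import Cfsg.Agent.Lib.Helper4.JC.Defs

/-! Ladder JC, rung DIAG: the diagonal positions of a symbol are a product of matrix spaces. -/

set_option autoImplicit false

namespace Cfsg.Agent.Lib.Helper4.JC

open Cfsg

variable {F : Type*} [Field F] {t : ℕ} {d : Fin t → ℕ}

theorem diag_bij (hd : ∀ k, 1 ≤ d k) :
    Function.Bijective (fun (y : {p : Fin t × Idx d // pD d p} → F)
      (i : Fin (Finset.univ.sup d + 1)) => My hd (i : ℕ) y) := by
  constructor
  · intro y y' h
    funext p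
    obtain ⟨⟨k, ⟨l, c⟩⟩, hc, hkl⟩ := p
    have hk : d k < Finset.univ.sup d + 1 := Nat.lt_succ_of_le (Finset.le_sup (Finset.mem_univ k))
    have h1 := congrFun (congrFun (congrFun h ⟨d k, hk⟩) ⟨l, hkl.symm⟩) ⟨k, rfl⟩
    have hp : (⟨(k, ⟨l, c⟩), hc, hkl⟩ : {p : Fin t × Idx d // pD d p}) =
        ⟨(k, z0 hd l), rfl, hkl⟩ := by
      apply Subtype.ext
      have : c = ⟨0, hd l⟩ := Fin.ext hc
      subst this
      rfl
    rw [hp]
    exact h1
  · intro M
    refine ⟨fun p => M ⟨d p.1.1, Nat.lt_succ_of_le (Finset.le_sup (Finset.mem_univ _))⟩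
      ⟨p.1.2.1, p.2.2.symm⟩ ⟨p.1.1, rfl⟩, ?_⟩
    have key : ∀ (i : ℕ) (hi : i < Finset.univ.sup d + 1) (l : {k : Fin t // d k = i})
        (k : Fin t) (hk : d k = i),
        M ⟨d k, Nat.lt_succ_of_le (Finset.le_sup (Finset.mem_univ _))⟩ ⟨l.1, l.2.trans hk.symm⟩
          ⟨k, rfl⟩ = M ⟨i, hi⟩ l ⟨k, hk⟩ := by
      intro i hi l k hk
      subst hk
      rfl
    funext i
    obtain ⟨i, hi⟩ := i
    ext l k
    exact key i hi l k.1 k.2

theorem diag_card [Finite F] (hd : ∀ k, 1 ≤ d k) :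
    Nat.card {y : {p : Fin t × Idx d // pD d p} → F // ∀ i : ℕ, (My hd i y).det ≠ 0} =
      ∏ i ∈ Finset.range (Finset.univ.sup d + 1),
        Nat.card {M : Matrix {k : Fin t // d k = i} {k : Fin t // d k = i} F // M.det ≠ 0} := by
  have e1 : {y : {p : Fin t × Idx d // pD d p} → F // ∀ i : ℕ, (My hd i y).det ≠ 0} ≃
      {M : (i : Fin (Finset.univ.sup d + 1)) →
        Matrix {k : Fin t // d k = (i : ℕ)} {k : Fin t // d k = (i : ℕ)} F //
          ∀ i, (M i).det ≠ 0} :=
    (Equiv.ofBijective _ (diag_bij hd)).subtypeEquiv (by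
      intro y
      constructor
      · intro h i
        exact h i
      · intro h i
        by_cases hi : i < Finset.univ.sup d + 1
        · exact h ⟨i, hi⟩
        · have : IsEmpty {k : Fin t // d k = i} :=
            ⟨fun k => hi (k.2 ▸ Nat.lt_succ_of_le (Finset.le_sup (Finset.mem_univ k.1)))⟩
          rw [Matrix.det_isEmpty]
          exact one_ne_zero)
  rw [Nat.card_congr (e1.trans (Equiv.subtypePiEquivPi
    (p := fun (i : Fin (Finset.univ.sup d + 1))
      (M : Matrix {k : Fin t // d k = (i : ℕ)} {k : Fin t // d k = (i : ℕ)} F) => M.det ≠ 0))),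
    Nat.card_pi]
  exact Fin.prod_univ_eq_prod_range (fun i => Nat.card
    {M : Matrix {k : Fin t // d k = i} {k : Fin t // d k = i} F // M.det ≠ 0}) _

end Cfsg.Agent.Lib.Helper4.JC
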