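import Mathlib

/-! Ladder JC, rung SPLIT: counting functions with a zero set, a constrained set and a free set. -/

set_option autoImplicit false

namespace Cfsg.Agent.Lib.Helper4.JC

open Classical in
/-- the equivalence behind `split_card`. -/
noncomputable def splitEquiv {Q K : Type*} [Zero K] (qZ qD : Q → Prop)
    (hdis : ∀ q, qD q → ¬ qZ q) (R : ({q : Q // qD q} → K) → Prop) :
    {x : Q → K // (∀ q, qZ q → x q = 0) ∧ R (fun q => x q.1)} ≃
      ({q : Q // ¬ qZ q ∧ ¬ qD q} → K) × {y : {q : Q // qD q} → K // R y} where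
  toFun x := (fun q => x.1 q.1, ⟨fun q => x.1 q.1, x.2.2⟩)
  invFun p := ⟨fun q => if h : qD q then p.2.1 ⟨q, h⟩ else
      if h' : qZ q then 0 else p.1 ⟨q, h', h⟩, by
    refine ⟨fun q hq => ?_, ?_⟩
    · have h1 : ¬ qD q := fun h => hdis q h hq
      simp only [h1, hq, dif_pos, dif_neg, not_false_eq_true]
    · have : (fun q : {q : Q // qD q} => if h : qD q.1 then p.2.1 ⟨q.1, h⟩ else
          if h' : qZ q.1 then 0 else p.1 ⟨q.1, h', h⟩) = p.2.1 := by
        funext q
        rw [dif_pos q.2]
      rw [this]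
      exact p.2.2⟩
  left_inv x := by
    apply Subtype.ext
    funext q
    by_cases h : qD q
    · simp only [h, dif_pos]
    · by_cases h' : qZ q
      · simp only [h, h', dif_pos, dif_neg, not_false_eq_true]
        exact (x.2.1 q h').symm
      · simp only [h, h', dif_neg, not_false_eq_true]
  right_inv p := by
    refine Prod.ext ?_ (Subtype.ext ?_)
    · funext q
      simp only [q.2.1, q.2.2, dif_neg, not_false_eq_true]
    · funext q
      simp only [q.2, dif_pos]

theorem split_card {Q K : Type*} [Finite Q] [Finite K] [Zero K] (qZ qD : Q → Prop)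
    (hdis : ∀ q, qD q → ¬ qZ q) (R : ({q : Q // qD q} → K) → Prop) :
    Nat.card {x : Q → K // (∀ q, qZ q → x q = 0) ∧ R (fun q => x q.1)} =
      Nat.card K ^ Nat.card {q : Q // ¬ qZ q ∧ ¬ qD q} * Nat.card {y : {q : Q // qD q} → K // R y} := by
  rw [Nat.card_congr (splitEquiv qZ qD hdis R), Nat.card_prod, Nat.card_fun]

end Cfsg.Agent.Lib.Helper4.JC
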