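import Cfsg.Agent.Lib.Helper4.JC.Defs
import Cfsg.Agent.Lib.Helper4.JC.SPLIT
import Cfsg.Agent.Lib.Helper4.JC.DIAG

set_option autoImplicit false

namespace Cfsg.Agent.Lib.Helper4.JC

open Cfsg

variable {F : Type*} [Field F] {t : ℕ} {d : Fin t → ℕ}

/-- CNT: the number of symbols -/
theorem cnt [Finite F] (hd : ∀ k, 1 ≤ d k) :
    Nat.card {x : Fin t → Idx d → F // Supp x ∧ ∀ i : ℕ, (Mi hd i x).det ≠ 0} =
      Nat.card F ^ Nat.card {p : Fin t × Idx d // ¬ pZ d p ∧ ¬ pD d p} *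
        ∏ i ∈ Finset.range (Finset.univ.sup d + 1),
          Nat.card {M : Matrix {k : Fin t // d k = i} {k : Fin t // d k = i} F // M.det ≠ 0} := by
  have hdis : ∀ q, pD d q → ¬ pZ d q := by
    intro q hq hz
    unfold pD at hq
    unfold pZ at hz
    omega
  rw [← diag_card hd, ← split_card (pZ d) (pD d) hdis (fun y => ∀ i : ℕ, (My hd i y).det ≠ 0)]
  refine Nat.card_congr (Equiv.subtypeEquiv (Equiv.curry (Fin t) (Idx d) F).symm ?_)
  intro x
  constructor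
  · rintro ⟨h1, h2⟩
    exact ⟨fun q hq => h1 q.1 q.2 hq, h2⟩
  · rintro ⟨h1, h2⟩
    exact ⟨fun k s hs => h1 (k, s) hs, h2⟩

end Cfsg.Agent.Lib.Helper4.JC
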