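import Cfsg.Agent.Lib.Helper4.JC.Defs

set_option autoImplicit false

namespace Cfsg.Agent.Lib.Helper4.JC

open Cfsg

variable {F : Type*} [Field F] {t : ℕ} {d : Fin t → ℕ}

theorem tri_le (d : Fin t → ℕ) (k : Fin t) : d k ≤ Finset.univ.sup d :=
  Finset.le_sup (f := d) (Finset.mem_univ k)

/-- pure arithmetic behind `tri`. -/
theorem tri_arith (D a b dk dl : ℕ) (hk : dk ≤ D) (hl : dl ≤ D) (ha : a < dk) (hb : b < dl)
    (hab : a ≤ b) (h : ¬ (b - a + dk < dl)) :
    a * (D + 1) + (D - (dk - a)) ≤ b * (D + 1) + (D - (dl - b)) := by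
  rcases Nat.eq_or_lt_of_le hab with h1 | h1
  · subst h1
    have : D - (dk - a) ≤ D - (dl - a) := by omega
    omega
  · have h2 : (a + 1) * (D + 1) ≤ b * (D + 1) := Nat.mul_le_mul_right _ h1
    have h3 : (a + 1) * (D + 1) = a * (D + 1) + (D + 1) := by ring
    omega

/-- TRI. -/
theorem tri {x : Fin t → Idx d → F} (h : Supp x) :
    Matrix.BlockTriangular (Phi x).transpose (beta d) := by
  intro i j hij
  rw [Matrix.transpose_apply, Phi_apply]
  split_ifs with hab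
  · by_contra hne
    have h1 : ¬ ((j.2 : ℕ) - i.2 + d i.1 < d j.1) := by
      intro h2
      exact hne (h i.1 ⟨j.1, ⟨(j.2 : ℕ) - i.2, lt_of_le_of_lt (Nat.sub_le _ _) j.2.2⟩⟩ h2)
    have h3 := tri_arith (Finset.univ.sup d) i.2 j.2 (d i.1) (d j.1) (tri_le d _) (tri_le d _)
      i.2.2 j.2.2 hab h1
    unfold beta at hij
    omega
  · rfl

end Cfsg.Agent.Lib.Helper4.JC
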