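import Cfsg.Agent.Lib.Helper4.JC.Defs
import Cfsg.Agent.Lib.Helper4.JC.TRI
import Cfsg.Agent.Lib.Helper4.JC.BLK

set_option autoImplicit false

namespace Cfsg.Agent.Lib.Helper4.JC

open Cfsg

variable {F : Type*} [Field F] {t : ℕ} {d : Fin t → ℕ}

theorem det_ne (hd : ∀ k, 1 ≤ d k) {x : Fin t → Idx d → F} (h : Supp x) :
    (Phi x).det ≠ 0 ↔ ∀ i : ℕ, (Mi hd i x).det ≠ 0 := by
  classical
  rw [← Matrix.det_transpose, Matrix.BlockTriangular.det (tri h), Finset.prod_ne_zero_iff]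
  constructor
  · intro hall i
    by_cases hi : ∃ k, d k = i
    · obtain ⟨k, rfl⟩ := hi
      have h1 := hall (beta d (z0 hd k)) (Finset.mem_image_of_mem _ (Finset.mem_univ _))
      rw [blk hd x (z0 hd k)] at h1
      exact h1
    · have : IsEmpty {k : Fin t // d k = i} := ⟨fun k => hi ⟨k.1, k.2⟩⟩
      rw [Matrix.det_isEmpty]
      exact one_ne_zero
  · intro hall v hv
    obtain ⟨s, -, rfl⟩ := Finset.mem_image.1 hv
    rw [blk hd x s]
    exact hall _

end Cfsg.Agent.Lib.Helper4.JC
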