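import Mathlib
import Cfsg.Prelude.Def_JordanBlocks

/-!
# Ladder JC (S2581): centraliser in `GL` of a unipotent matrix of Jordan type `d`.  Definitions.

`J = jordanTypeMatrix d F` maps `e (k,a) ↦ e (k,a) + e (k,a+1)`.  A matrix `X` commutes with `J` iff
`X = Phi x` for a symbol `x k s = X s (k,0)` with `Supp x`.
-/

set_option autoImplicit false

namespace Cfsg.Agent.Lib.Helper4.JC

variable {F : Type*} [Field F] {t : ℕ} {d : Fin t → ℕ}

/-- the index type of `jordanTypeMatrix d F`. -/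
abbrev Idx (d : Fin t → ℕ) : Type := (k : Fin t) × Fin (d k)

/-- the index `(k, 0)`. -/
def z0 (hd : ∀ k, 1 ≤ d k) (k : Fin t) : Idx d := ⟨k, ⟨0, hd k⟩⟩

/-- the matrix with symbol `x`: entry `((l,b),(k,a))` is `x k (l, b - a)` if `a ≤ b` and `0` otherwise. -/
def Phi (x : Fin t → Idx d → F) : Matrix (Idx d) (Idx d) F :=
  Matrix.of fun r c => if (c.2 : ℕ) ≤ r.2 then
    x c.1 ⟨r.1, ⟨(r.2 : ℕ) - c.2, lt_of_le_of_lt (Nat.sub_le _ _) r.2.2⟩⟩ else 0

/-- the support condition on symbols: `x k (l,c) = 0` if `c + d k < d l`. -/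
def Supp (x : Fin t → Idx d → F) : Prop :=
  ∀ (k : Fin t) (s : Idx d), (s.2 : ℕ) + d k < d s.1 → x k s = 0

/-- the `i`-th diagonal block of a symbol. -/
def Mi (hd : ∀ k, 1 ≤ d k) (i : ℕ) (x : Fin t → Idx d → F) :
    Matrix {k : Fin t // d k = i} {k : Fin t // d k = i} F :=
  Matrix.of fun l k => x k.1 (z0 hd l.1)

/-- the entrywise form of `X * J = J * X`. -/
def Ent (X : Matrix (Idx d) (Idx d) F) : Prop :=
  ∀ r c : Idx d,
    (if h : (c.2 : ℕ) + 1 < d c.1 then X r ⟨c.1, ⟨(c.2 : ℕ) + 1, h⟩⟩ else 0) =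
      (if 0 < (r.2 : ℕ) then X ⟨r.1, ⟨(r.2 : ℕ) - 1, lt_of_le_of_lt (Nat.sub_le _ _) r.2.2⟩⟩ c else 0)

/-- the block function: lexicographic code of `(a, D - (d k - a))`. -/
def beta (d : Fin t → ℕ) (s : Idx d) : ℕ :=
  (s.2 : ℕ) * (Finset.univ.sup d + 1) + (Finset.univ.sup d - (d s.1 - (s.2 : ℕ)))

/-- the number of free parameters for a pair of blocks of sizes `i`, `j`. -/
def ff (i j : ℕ) : ℕ := if i = j then i - 1 else min i j

/-- the zero positions of a symbol. -/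
def pZ (d : Fin t → ℕ) (p : Fin t × Idx d) : Prop := (p.2.2 : ℕ) + d p.1 < d p.2.1

/-- the positions of a symbol that enter the diagonal blocks. -/
def pD (d : Fin t → ℕ) (p : Fin t × Idx d) : Prop := (p.2.2 : ℕ) = 0 ∧ d p.1 = d p.2.1

/-- the diagonal blocks as a function of the diagonal positions only. -/
def My (hd : ∀ k, 1 ≤ d k) (i : ℕ) (y : {p : Fin t × Idx d // pD d p} → F) :
    Matrix {k : Fin t // d k = i} {k : Fin t // d k = i} F :=
  Matrix.of fun l k => y ⟨(k.1, z0 hd l.1), ⟨rfl, k.2.trans l.2.symm⟩⟩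

theorem Phi_apply (x : Fin t → Idx d → F) (r c : Idx d) :
    Phi x r c = if (c.2 : ℕ) ≤ r.2 then
      x c.1 ⟨r.1, ⟨(r.2 : ℕ) - c.2, lt_of_le_of_lt (Nat.sub_le _ _) r.2.2⟩⟩ else 0 := rfl

theorem Phi_z0 (hd : ∀ k, 1 ≤ d k) (x : Fin t → Idx d → F) (s : Idx d) (k : Fin t) :
    Phi x s (z0 hd k) = x k s := by
  rw [Phi_apply, if_pos (show ((z0 hd k).2 : ℕ) ≤ s.2 from Nat.zero_le _)]
  rfl

end Cfsg.Agent.Lib.Helper4.JC
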