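import Cfsg.Agent.Lib.Helper4.JC.Defs

set_option autoImplicit false

namespace Cfsg.Agent.Lib.Helper4.JC

open Cfsg

variable {F : Type*} [Field F] {t : ℕ} {d : Fin t → ℕ}

/-- the nilpotent part of `jordanTypeMatrix`. -/
def entN (d : Fin t → ℕ) (F : Type*) [Field F] : Matrix (Idx d) (Idx d) F :=
  Matrix.of fun r c => if r.1 = c.1 ∧ (r.2 : ℕ) = (c.2 : ℕ) + 1 then 1 else 0

theorem ent_J : jordanTypeMatrix d F = 1 + entN d F := by
  ext ⟨k, a⟩ ⟨l, b⟩
  rw [jordanTypeMatrix, Matrix.blockDiagonal'_apply, Matrix.add_apply, Matrix.one_apply]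
  by_cases h : k = l
  · subst h
    simp only [dif_pos, cast_eq, jordanBlock, Matrix.of_apply, entN, true_and]
    by_cases h1 : (a : ℕ) = b
    · have : a = b := Fin.ext h1
      subst this
      simp
    · have : (⟨k, a⟩ : Idx d) ≠ ⟨k, b⟩ := by
        intro h2
        apply h1
        cases h2
        rfl
      simp [h1, this]
  · have : (⟨k, a⟩ : Idx d) ≠ ⟨l, b⟩ := fun h2 => h (congrArg Sigma.fst h2)
    simp [h, this, entN]

theorem ent_mulN (X : Matrix (Idx d) (Idx d) F) (r c : Idx d) :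
    (X * entN d F) r c = if h : (c.2 : ℕ) + 1 < d c.1 then X r ⟨c.1, ⟨(c.2 : ℕ) + 1, h⟩⟩ else 0 := by
  rw [Matrix.mul_apply]
  split_ifs with h
  · rw [Finset.sum_eq_single (⟨c.1, ⟨(c.2 : ℕ) + 1, h⟩⟩ : Idx d)]
    · simp [entN]
    · rintro ⟨k, a⟩ - hne
      have : ¬ (k = c.1 ∧ (a : ℕ) = (c.2 : ℕ) + 1) := by
        rintro ⟨rfl, h2⟩
        apply hne
        congr 1
        exact Fin.ext h2
      simp [entN, this]
    · intro h'
      exact absurd (Finset.mem_univ _) h'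
  · apply Finset.sum_eq_zero
    rintro ⟨k, a⟩ -
    have : ¬ (k = c.1 ∧ (a : ℕ) = (c.2 : ℕ) + 1) := by
      rintro ⟨rfl, h2⟩
      apply h
      rw [← h2]
      exact a.2
    simp [entN, this]

theorem ent_Nmul (X : Matrix (Idx d) (Idx d) F) (r c : Idx d) :
    (entN d F * X) r c =
      if 0 < (r.2 : ℕ) then X ⟨r.1, ⟨(r.2 : ℕ) - 1, lt_of_le_of_lt (Nat.sub_le _ _) r.2.2⟩⟩ c else 0 := by
  rw [Matrix.mul_apply]
  split_ifs with h
  · rw [Finset.sum_eq_single (⟨r.1, ⟨(r.2 : ℕ) - 1, lt_of_le_of_lt (Nat.sub_le _ _) r.2.2⟩⟩ : Idx d)]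
    · have : (r.2 : ℕ) = (r.2 : ℕ) - 1 + 1 := by omega
      simp [entN, ← this]
    · rintro ⟨k, a⟩ - hne
      have : ¬ (r.1 = k ∧ (r.2 : ℕ) = (a : ℕ) + 1) := by
        rintro ⟨rfl, h2⟩
        apply hne
        congr 1
        apply Fin.ext
        simp only
        omega
      simp [entN, this]
    · intro h'
      exact absurd (Finset.mem_univ _) h'
  · apply Finset.sum_eq_zero
    rintro ⟨k, a⟩ -
    have : ¬ (r.1 = k ∧ (r.2 : ℕ) = (a : ℕ) + 1) := by
      rintro ⟨-, h2⟩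
      omega
    simp [entN, this]

theorem comm_iff_ent (X : Matrix (Idx d) (Idx d) F) :
    X * jordanTypeMatrix d F = jordanTypeMatrix d F * X ↔ Ent X := by
  rw [ent_J, mul_add, add_mul, mul_one, one_mul, add_right_inj, ← Matrix.ext_iff]
  unfold Ent
  simp only [ent_mulN, ent_Nmul]

end Cfsg.Agent.Lib.Helper4.JC
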