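import Cfsg.Agent.Lib.Helper4.JC.Defs

set_option autoImplicit false

namespace Cfsg.Agent.Lib.Helper4.JC

open Cfsg

variable {F : Type*} [Field F] {t : ℕ} {d : Fin t → ℕ}

theorem fwd_shift {X : Matrix (Idx d) (Idx d) F} (h : Ent X) (k l : Fin t) :
    ∀ (a : ℕ) (ha : a < d k) (b : ℕ) (hb : b < d l),
      X ⟨l, ⟨b, hb⟩⟩ ⟨k, ⟨a, ha⟩⟩ =
        if a ≤ b then X ⟨l, ⟨b - a, lt_of_le_of_lt (Nat.sub_le _ _) hb⟩⟩ ⟨k, ⟨0, lt_of_le_of_lt (Nat.zero_le _) ha⟩⟩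
        else 0 := by
  intro a
  induction a with
  | zero =>
    intro ha b hb
    rw [if_pos (Nat.zero_le _)]
    rfl
  | succ a ih =>
    intro ha b hb
    have h1 := h ⟨l, ⟨b, hb⟩⟩ ⟨k, ⟨a, by omega⟩⟩
    simp only at h1
    rw [dif_pos ha] at h1
    rw [h1]
    by_cases hb0 : 0 < b
    · rw [if_pos hb0, ih (by omega) (b - 1) (by omega)]
      by_cases hab : a ≤ b - 1
      · rw [if_pos hab, if_pos (by omega)]
        have : b - 1 - a = b - (a + 1) := by omega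
        simp only [this]
      · rw [if_neg hab, if_neg (by omega)]
    · rw [if_neg hb0, if_neg (by omega)]

theorem ent_fwd (hd : ∀ k, 1 ≤ d k) {X : Matrix (Idx d) (Idx d) F} (h : Ent X) :
    Supp (fun k s => X s (z0 hd k)) ∧ X = Phi (fun k s => X s (z0 hd k)) := by
  constructor
  · rintro k ⟨l, ⟨c, hc⟩⟩ hs
    simp only at hs
    have hk := hd k
    have h1 := fwd_shift h k l (d k - 1) (by omega) (c + d k - 1) (by omega)
    rw [if_pos (by omega)] at h1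
    have h2 := h ⟨l, ⟨c + d k, hs⟩⟩ ⟨k, ⟨d k - 1, by omega⟩⟩
    simp only at h2
    rw [dif_neg (by omega), if_pos (by omega)] at h2
    have h3 : c + d k - 1 - (d k - 1) = c := by omega
    simp only [h3] at h1
    change X ⟨l, ⟨c, hc⟩⟩ ⟨k, ⟨0, hd k⟩⟩ = 0
    rw [← h1, ← h2]
  · ext ⟨l, ⟨b, hb⟩⟩ ⟨k, ⟨a, ha⟩⟩
    rw [Phi_apply, fwd_shift h k l a ha b hb]
    rfl

end Cfsg.Agent.Lib.Helper4.JC
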