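import Cfsg.Agent.Lib.Helper4.JC.Defs
import Cfsg.Agent.Lib.Helper4.JC.ENT
import Cfsg.Agent.Lib.Helper4.JC.FWD
import Cfsg.Agent.Lib.Helper4.JC.BWD
import Cfsg.Agent.Lib.Helper4.JC.DET

set_option autoImplicit false

namespace Cfsg.Agent.Lib.Helper4.JC

open Cfsg
open scoped MatrixGroups

variable {F : Type*} [Field F] {t : ℕ} {d : Fin t → ℕ}

theorem card_eqv (hd : ∀ k, 1 ≤ d k) :
    Nat.card {g : GL (Idx d) F // (g : Matrix (Idx d) (Idx d) F) * jordanTypeMatrix d F =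
        jordanTypeMatrix d F * (g : Matrix (Idx d) (Idx d) F)} =
      Nat.card {x : Fin t → Idx d → F // Supp x ∧ ∀ i : ℕ, (Mi hd i x).det ≠ 0} := by
  classical
  refine Nat.card_congr ⟨fun g => ⟨fun k s => (g.1 : Matrix (Idx d) (Idx d) F) s (z0 hd k), ?_⟩,
    fun x => ⟨Matrix.GeneralLinearGroup.mkOfDetNeZero (Phi x.1) ((det_ne hd x.2.1).2 x.2.2), ?_⟩, ?_, ?_⟩
  · obtain ⟨h1, h2⟩ := ent_fwd hd ((comm_iff_ent _).1 g.2)
    refine ⟨h1, (det_ne hd h1).1 ?_⟩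
    rw [← h2]
    have := (Matrix.isUnit_iff_isUnit_det _).1 g.1.isUnit
    exact this.ne_zero
  · exact (comm_iff_ent _).2 (ent_bwd x.2.1)
  · intro g
    apply Subtype.ext
    apply Units.ext
    exact (ent_fwd hd ((comm_iff_ent _).1 g.2)).2.symm
  · intro x
    apply Subtype.ext
    funext k s
    exact Phi_z0 hd x.1 s k

end Cfsg.Agent.Lib.Helper4.JC
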