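import Cfsg.Agent.Lib.Helper4.JC.Defs

/-! Ladder JC, rung GLC: the number of invertible matrices on `{k // d k = i}`. -/

set_option autoImplicit false

namespace Cfsg.Agent.Lib.Helper4.JC

open Cfsg

variable {F : Type*} [Field F] {t : ℕ} {d : Fin t → ℕ}

/-- matrices of nonzero determinant are the general linear group. -/
noncomputable def glcEquiv (K : Type*) [Fintype K] [DecidableEq K] :
    {M : Matrix K K F // M.det ≠ 0} ≃ GL K F where
  toFun M := Matrix.GeneralLinearGroup.mkOfDetNeZero M.1 M.2
  invFun g := ⟨g.1, by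
    have := (Matrix.isUnit_iff_isUnit_det _).1 g.isUnit
    exact this.ne_zero⟩
  left_inv M := rfl
  right_inv g := Units.ext rfl

theorem glc_card_aux [Fintype F] (K : Type*) [Fintype K] [DecidableEq K] {n : ℕ}
    (hn : Fintype.card K = n) :
    Nat.card {M : Matrix K K F // M.det ≠ 0} =
      ∏ j : Fin n, (Fintype.card F ^ n - Fintype.card F ^ (j : ℕ)) := by
  rw [Nat.card_congr (glcEquiv (F := F) K)]
  have e : GL K F ≃* GL (Fin n) F :=
    Units.mapEquiv (Matrix.reindexAlgEquiv F F (Fintype.equivFinOfCardEq hn)).toMulEquiv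
  rw [Nat.card_congr e.toEquiv, Matrix.card_GL_field]

theorem gl_card [Fintype F] {q : ℕ} (hF : Fintype.card F = q) (d : Fin t → ℕ) (i : ℕ) :
    Nat.card {M : Matrix {k : Fin t // d k = i} {k : Fin t // d k = i} F // M.det ≠ 0} =
      ∏ j : Fin ((Finset.univ.filter (fun k : Fin t => d k = i)).card),
        (q ^ (Finset.univ.filter (fun k : Fin t => d k = i)).card - q ^ (j : ℕ)) := by
  subst hF
  exact glc_card_aux _ (Fintype.card_subtype _)

end Cfsg.Agent.Lib.Helper4.JC
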