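import Cfsg.Agent.Lib.Helper4.JC.Defs
import Cfsg.Agent.Lib.Helper4.JC.EQV
import Cfsg.Agent.Lib.Helper4.JC.CNT
import Cfsg.Agent.Lib.Helper4.JC.GLC
import Cfsg.Agent.Lib.Helper4.JC.ARI1
import Cfsg.Agent.Lib.Helper4.JC.ARI2

set_option autoImplicit false

namespace Cfsg.Agent.Lib.Helper4.JC

open Cfsg

variable {F : Type*} [Field F] {t : ℕ} {d : Fin t → ℕ}

theorem main [Fintype F] {q : ℕ} (hF : Fintype.card F = q) (d : Fin t → ℕ) (hd : ∀ k, 1 ≤ d k) :
    Nat.card {g : GL ((k : Fin t) × Fin (d k)) F // (g : Matrix ((k : Fin t) × Fin (d k)) ((k : Fin t) × Fin (d k)) F) * Cfsg.jordanTypeMatrix d F = Cfsg.jordanTypeMatrix d F * (g : Matrix ((k : Fin t) × Fin (d k)) ((k : Fin t) × Fin (d k)) F)} = q ^ (2 * (∑ i ∈ Finset.range (Finset.univ.sup d + 1), ∑ j ∈ Finset.range (Finset.univ.sup d + 1), if i < j then i * (Finset.univ.filter (fun k : Fin t => d k = i)).card * (Finset.univ.filter (fun k : Fin t => d k = j)).card else 0) + ∑ i ∈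 Finset.range (Finset.univ.sup d + 1), (i - 1) * (Finset.univ.filter (fun k : Fin t => d k = i)).card ^ 2) * ∏ i ∈ Finset.range (Finset.univ.sup d + 1), ∏ j : Fin ((Finset.univ.filter (fun k : Fin t => d k = i)).card), (q ^ (Finset.univ.filter (fun k : Fin t => d k = i)).card - q ^ (j : ℕ)) := by
  rw [card_eqv hd, cnt hd, ari1, ari2, Nat.card_eq_fintype_card, hF]
  congr 1
  exact Finset.prod_congr rfl fun i _ => gl_card hF d i

end Cfsg.Agent.Lib.Helper4.JC
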